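/-
Elementary theory of "characteristic 2" subgroups, for the quasithin block: commuting of subnormal
odd-generated subgroups with normal 2-subgroups, the passage to 2-local subgroups, and the criterion
F*(X) = O_2(X).
-/
import Mathlib
import Cfsg.Prelude.Def_QuasithinSetup

set_option autoImplicit false

open Subgroup

namespace Cfsg.Agent.Lib.Quasithin.CharTwo

variable {G : Type*} [Group G]

/-! ### Elementary lemmas on powers and conjugation -/

theorem mem_of_pow_mem_of_coprime {A : Subgroup G} {s : G} {m n : ℕ} (hc : Nat.Coprime m n)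
    (hm : s ^ m ∈ A) (hn : s ^ n ∈ A) : s ∈ A := by
  have h := Nat.gcd_eq_gcd_ab m n
  rw [hc.gcd_eq_one] at h
  have h1 : s = (s ^ m) ^ (Nat.gcdA m n) * (s ^ n) ^ (Nat.gcdB m n) := by
    rw [← zpow_natCast s m, ← zpow_natCast s n, ← zpow_mul, ← zpow_mul, ← zpow_add, ← h]
    simp
  rw [h1]
  exact A.mul_mem (A.zpow_mem hm _) (A.zpow_mem hn _)

theorem eq_one_of_pow_eq_one_of_coprime {s : G} {m n : ℕ} (hc : Nat.Coprime m n)
    (hm : s ^ m = 1) (hn : s ^ n = 1) : s = 1 := by
  have := mem_of_pow_mem_of_coprime (A := ⊥) hc (by simpa using hm) (by simpa using hn)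
  simpa using this

theorem coprime_two_pow_of_odd {m k : ℕ} (hm : Odd m) : Nat.Coprime m (2 ^ k) :=
  Nat.Coprime.pow_right k (Nat.coprime_two_right.mpr hm)

/-- If `y` has odd order (dividing the odd `k`), and `c = x⁻¹ y x y⁻¹` commutes with `y` and has
2-power order, then `y` commutes with `x`. -/
theorem commute_of_odd_of_comm {x y : G} {k e : ℕ} (hk : Odd k) (hyk : y ^ k = 1)
    (hc : (x⁻¹ * y * x * y⁻¹) * y = y * (x⁻¹ * y * x * y⁻¹))
    (he : (x⁻¹ * y * x * y⁻¹) ^ (2 ^ e) = 1) : y * x = x * y := by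
  set c := x⁻¹ * y * x * y⁻¹ with hcdef
  have hyx : y * x * y⁻¹ = x * c := by simp [hcdef, mul_assoc]
  have hpow : ∀ n : ℕ, y ^ n * x * (y ^ n)⁻¹ = x * c ^ n := by
    intro n
    induction n with
    | zero => simp
    | succ n ih =>
      have hcy : Commute c y := hc
      calc y ^ (n + 1) * x * (y ^ (n + 1))⁻¹
          = y * (y ^ n * x * (y ^ n)⁻¹) * y⁻¹ := by
            rw [pow_succ']; group
        _ = y * (x * c ^ n) * y⁻¹ := by rw [ih]
        _ = (y * x * y⁻¹) * (y * c ^ n * y⁻¹) := by group
        _ = (x * c) * (c ^ n) := by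
            rw [hyx, ((hcy.pow_left n).symm.eq)]
            simp
        _ = x * c ^ (n + 1) := by rw [pow_succ']; group
  have h1 := hpow k
  rw [hyk] at h1
  simp only [one_mul, inv_one, mul_one] at h1
  have hck : c ^ k = 1 := by
    have : x * c ^ k = x * 1 := by rw [mul_one]; exact h1.symm
    exact mul_left_cancel this
  have hc1 : c = 1 := eq_one_of_pow_eq_one_of_coprime (coprime_two_pow_of_odd hk) hck he
  have : x⁻¹ * y * x * y⁻¹ = 1 := hc1
  have h2 : x⁻¹ * y * x = y := by
    calc x⁻¹ * y * x = (x⁻¹ * y * x * y⁻¹) * y := by group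
      _ = y := by rw [this, one_mul]
  calc y * x = x * (x⁻¹ * y * x) := by group
    _ = x * y := by rw [h2]

/-! ### Odd generation -/

/-- To show that a subgroup generated by its odd-order elements lies in `B`, it suffices to check
the odd-order elements. -/
theorem le_of_oddGen {A B : Subgroup G} (hA : A ≤ Cfsg.oddGenerated A)
    (h : ∀ x ∈ A, Odd (orderOf x) → x ∈ B) : A ≤ B := by
  refine hA.trans ?_
  rw [Cfsg.oddGenerated, Subgroup.closure_le]
  rintro x ⟨hx, hx'⟩
  exact h x hx hx'

theorem oddGenerated_le (A : Subgroup G) : Cfsg.oddGenerated A ≤ A := by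
  rw [Cfsg.oddGenerated, Subgroup.closure_le]
  rintro x ⟨hx, _⟩
  exact hx

theorem le_oddGenerated_of_forall {A : Subgroup G} (h : ∀ x ∈ A, Odd (orderOf x)) :
    A ≤ Cfsg.oddGenerated A := fun x hx => Subgroup.subset_closure ⟨hx, h x hx⟩

/-- Odd order subgroups are generated by their odd-order elements. -/
theorem le_oddGenerated_of_odd [Finite G] {A : Subgroup G} (h : Odd (Nat.card A)) :
    A ≤ Cfsg.oddGenerated A := by
  refine le_oddGenerated_of_forall fun x hx => ?_
  have h1 : orderOf (⟨x, hx⟩ : A) ∣ Nat.card A := orderOf_dvd_natCard _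
  rw [Subgroup.orderOf_mk] at h1
  exact Odd.of_dvd_nat h h1

/-- A perfect finite subgroup is generated by its odd-order elements. -/
theorem le_oddGenerated_of_perfect [Finite G] {A : Subgroup G} (h : ⁅A, A⁆ = A) :
    A ≤ Cfsg.oddGenerated A := by
  classical
  set D := Cfsg.oddGenerated A with hD
  have hDA : D ≤ A := oddGenerated_le A
  have hNorm : (D.subgroupOf A).Normal := by
    rw [Subgroup.normal_subgroupOf_iff_le_normalizer hDA]
    intro g hg
    rw [Subgroup.mem_normalizer_iff]
    have key : ∀ g ∈ A, ∀ h ∈ D, g * h * g⁻¹ ∈ D := by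
      intro g hg h hh
      have : D ≤ D.comap (MulAut.conj g).toMonoidHom := by
        rw [hD, Cfsg.oddGenerated, Subgroup.closure_le]
        rintro x ⟨hx, hx'⟩
        refine Subgroup.subset_closure ⟨A.mul_mem (A.mul_mem hg hx) (A.inv_mem hg), ?_⟩
        have : orderOf (g * x * g⁻¹) = orderOf x := by
          simpa using orderOf_injective (MulAut.conj g).toMonoidHom
            (MulAut.conj g).injective x
        show Odd (orderOf (g * x * g⁻¹))
        rwa [this]
      simpa using this hh
    intro h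
    refine ⟨fun hh => key g hg h hh, fun hh => ?_⟩
    have := key g⁻¹ (A.inv_mem hg) _ hh
    simpa [mul_assoc] using this
  have hP : IsPGroup 2 (↥A ⧸ D.subgroupOf A) := by
    intro q
    obtain ⟨a, rfl⟩ := QuotientGroup.mk_surjective q
    have ha : orderOf a ≠ 0 := (orderOf_pos a).ne'
    obtain ⟨k, m, hm, hn⟩ := Nat.exists_eq_two_pow_mul_odd ha
    refine ⟨k, ?_⟩
    rw [← QuotientGroup.mk_pow, QuotientGroup.eq_one_iff, Subgroup.mem_subgroupOf]
    refine Subgroup.subset_closure ⟨(a ^ 2 ^ k).2, ?_⟩
    have h1 : (a ^ 2 ^ k) ^ m = 1 := by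
      rw [← pow_mul, ← hn, pow_orderOf_eq_one]
    have h2 : orderOf (a ^ 2 ^ k) ∣ m := orderOf_dvd_of_pow_eq_one h1
    have h3 : orderOf (((a ^ 2 ^ k : A) : G)) = orderOf (a ^ 2 ^ k) := by
      exact Subgroup.orderOf_coe _
    rw [h3]
    exact Odd.of_dvd_nat hm h2
  have : Fact (Nat.Prime 2) := ⟨Nat.prime_two⟩
  have : Group.IsNilpotent (↥A ⧸ D.subgroupOf A) := hP.isNilpotent
  have hperf : commutator ↥A = ⊤ := by
    rw [_root_.commutator_def]
    rw [eq_top_iff]
    have h2 : (⁅(⊤ : Subgroup A), (⊤ : Subgroup A)⁆).map A.subtype = A := by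
      rw [Subgroup.map_commutator]
      have : (⊤ : Subgroup A).map A.subtype = A := by
        rw [← MonoidHom.range_eq_map, Subgroup.range_subtype]
      rw [this, h]
    intro x _
    have hx : (x : G) ∈ (⁅(⊤ : Subgroup A), (⊤ : Subgroup A)⁆).map A.subtype := by
      rw [h2]; exact x.2
    obtain ⟨y, hy, hxy⟩ := hx
    have : y = x := Subtype.ext hxy
    rwa [← this]
  have hsubs : Subsingleton (↥A ⧸ D.subgroupOf A) := by
    by_contra hns
    rw [not_subsingleton_iff_nontrivial] at hns
    have hlt := Group.IsSolvable.commutator_lt_top_of_nontrivial (↥A ⧸ D.subgroupOf A)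
    have htop : commutator (↥A ⧸ D.subgroupOf A) = ⊤ := by
      rw [_root_.commutator_def, eq_top_iff]
      have hsurj := QuotientGroup.mk'_surjective (D.subgroupOf A)
      have hm := Subgroup.map_commutator (⊤ : Subgroup A) (⊤ : Subgroup A)
        (QuotientGroup.mk' (D.subgroupOf A))
      rw [Subgroup.map_top_of_surjective _ hsurj] at hm
      rw [← hm, ← _root_.commutator_def, hperf, Subgroup.map_top_of_surjective _ hsurj]
    exact hlt.ne htop
  intro x hx
  have h1 : (QuotientGroup.mk (⟨x, hx⟩ : A) : ↥A ⧸ D.subgroupOf A) = 1 :=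
    Subsingleton.elim _ _
  rw [QuotientGroup.eq_one_iff, Subgroup.mem_subgroupOf] at h1
  exact h1

/-! ### Products -/

theorem mem_sup_of_le_normalizer {A S : Subgroup G} (h : A ≤ normalizer (S : Set G)) {x : G}
    (hx : x ∈ A ⊔ S) : ∃ a ∈ A, ∃ s ∈ S, a * s = x := by
  let T : Subgroup G :=
    { carrier := {x | ∃ a ∈ A, ∃ s ∈ S, a * s = x}
      mul_mem' := by
        rintro _ _ ⟨a, ha, s, hs, rfl⟩ ⟨a', ha', s', hs', rfl⟩
        refine ⟨a * a', A.mul_mem ha ha', a'⁻¹ * s * a' * s', ?_, by group⟩
        refine S.mul_mem ?_ hs'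
        have := (Subgroup.mem_normalizer_iff.mp (h (A.inv_mem ha')) s).mp hs
        simpa using this
      one_mem' := ⟨1, A.one_mem, 1, S.one_mem, by simp⟩
      inv_mem' := by
        rintro _ ⟨a, ha, s, hs, rfl⟩
        refine ⟨a⁻¹, A.inv_mem ha, a * s⁻¹ * a⁻¹, ?_, by group⟩
        exact (Subgroup.mem_normalizer_iff.mp (h ha) s⁻¹).mp (S.inv_mem hs) }
  have hle : A ⊔ S ≤ T := by
    refine sup_le (fun a ha => ⟨a, ha, 1, S.one_mem, by simp⟩)
      (fun s hs => ⟨1, A.one_mem, s, hs, by simp⟩)
  exact hle hx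

/-! ### Induction along a subnormal chain in an ambient group -/

theorem subnormal_rec {X A : Subgroup G} (hAX : A ≤ X) (h : (A.subgroupOf X).IsSubnormal)
    {motive : Subgroup G → Prop} (top : motive X)
    (step : ∀ B C : Subgroup G, B ≤ C → C ≤ X → C ≤ normalizer (B : Set G) → motive C → motive B) :
    motive A := by
  have key : ∀ A' : Subgroup ↥X, A'.IsSubnormal → motive (A'.map X.subtype) := by
    intro A' hA'
    induction hA' with
    | top =>
      have : (⊤ : Subgroup X).map X.subtype = X := by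
        rw [← MonoidHom.range_eq_map, Subgroup.range_subtype]
      rwa [this]
    | step H K h_le _ hN ih =>
      refine step _ _ (Subgroup.map_mono h_le) (Subgroup.map_subtype_le _) ?_ ih
      rw [Subgroup.normal_subgroupOf_iff_le_normalizer h_le] at hN
      exact le_trans (Subgroup.map_mono hN) (Subgroup.le_normalizer_map _)
  have := key _ h
  rwa [Subgroup.map_subgroupOf_eq_of_le hAX] at this

/-! ### Subnormal odd-generated subgroups are normalized by normal 2-subgroups -/

theorem conj_mem_of_le_normalizer {N : Subgroup G} {g h : G} (hg : g ∈ normalizer (N : Set G))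
    (hh : h ∈ N) : g * h * g⁻¹ ∈ N :=
  (Subgroup.mem_normalizer_iff.mp hg h).mp hh

theorem normalizes_of_subnormal {X A S : Subgroup G} (hAX : A ≤ X)
    (hsub : (A.subgroupOf X).IsSubnormal) (hSX : S ≤ X) (hXS : X ≤ normalizer (S : Set G))
    (hS : IsPGroup 2 S) (hodd : A ≤ Cfsg.oddGenerated A) : S ≤ normalizer (A : Set G) := by
  set W := A ⊔ S with hW
  have hWX : W ≤ X := sup_le hAX hSX
  have hAS : A ≤ normalizer (S : Set G) := hAX.trans hXS
  have main : A ≤ A → (A ⊓ W ≤ normalizer (A : Set G)) → W ≤ normalizer (A : Set G) := by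
    refine subnormal_rec (motive := fun B => A ≤ B → (B ⊓ W ≤ normalizer (A : Set G)) →
      W ≤ normalizer (A : Set G)) hAX hsub ?_ ?_
    · intro _ h
      exact fun x hx => h ⟨hWX hx, hx⟩
    · intro B C hBC hCX hCB ih hAB hBW
      refine ih (hAB.trans hBC) ?_
      -- `C ⊓ W` normalizes `A`
      have key : ∀ g ∈ C ⊓ W, ∀ h ∈ A, g * h * g⁻¹ ∈ A := by
        intro g hg h hh
        have hcomap : A ≤ A.comap (MulAut.conj g).toMonoidHom := by
          refine le_of_oddGen hodd ?_
          intro x hx hxo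
          show g * x * g⁻¹ ∈ A
          have hyW : g * x * g⁻¹ ∈ W :=
            W.mul_mem (W.mul_mem hg.2 (le_sup_left (a := A) hx)) (W.inv_mem hg.2)
          have hyB : g * x * g⁻¹ ∈ B := conj_mem_of_le_normalizer (hCB hg.1) (hAB hx)
          obtain ⟨a, ha, s, hs, has⟩ := mem_sup_of_le_normalizer hAS hyW
          have hsB : s ∈ B := by
            have : s = a⁻¹ * (g * x * g⁻¹) := by rw [← has]; group
            rw [this]
            exact B.mul_mem (B.inv_mem (hAB ha)) hyB
          have hsW : s ∈ W := le_sup_right (a := A) hs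
          have hsN : s ∈ normalizer (A : Set G) := hBW ⟨hsB, hsW⟩
          -- powers
          have hpow : ∀ n : ℕ, ∃ a' ∈ A, (g * x * g⁻¹) ^ n = a' * s ^ n := by
            intro n
            induction n with
            | zero => exact ⟨1, A.one_mem, by simp⟩
            | succ n ih =>
              obtain ⟨a', ha', hn⟩ := ih
              have hsn : s ^ n ∈ normalizer (A : Set G) := Subgroup.pow_mem _ hsN n
              refine ⟨a' * (s ^ n * a * (s ^ n)⁻¹), A.mul_mem ha'
                (conj_mem_of_le_normalizer hsn ha), ?_⟩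
              rw [pow_succ, hn, ← has]
              group
          obtain ⟨a', ha', hn⟩ := hpow (orderOf x)
          have hy1 : (g * x * g⁻¹) ^ orderOf x = 1 := by
            rw [conj_pow, pow_orderOf_eq_one]; simp
          rw [hy1] at hn
          have hs1 : s ^ orderOf x ∈ A := by
            have : s ^ orderOf x = a'⁻¹ := by
              rw [eq_inv_iff_mul_eq_one]
              have h2 : a'⁻¹ * (a' * s ^ orderOf x) = a'⁻¹ * 1 := by rw [hn]
              simp only [inv_mul_cancel_left, mul_one] at h2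
              rw [h2]; simp
            rw [this]; exact A.inv_mem ha'
          obtain ⟨e, he⟩ := hS ⟨s, hs⟩
          have he' : s ^ 2 ^ e = 1 := by
            simpa using congrArg Subtype.val he
          have hs2 : s ∈ A := mem_of_pow_mem_of_coprime (coprime_two_pow_of_odd hxo) hs1
            (by rw [he']; exact A.one_mem)
          rw [← has]
          exact A.mul_mem ha hs2
        exact hcomap hh
      intro g hg
      rw [Subgroup.mem_normalizer_iff]
      intro h
      refine ⟨fun hh => key g hg h hh, fun hh => ?_⟩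
      have hg' : g⁻¹ ∈ C ⊓ W := (C ⊓ W).inv_mem hg
      have := key g⁻¹ hg' _ hh
      simpa [mul_assoc] using this
  have hfin := main le_rfl (fun x hx => ?_)
  · exact fun x hx => hfin (le_sup_right (a := A) hx)
  · exact Subgroup.le_normalizer hx.1

/-- A subnormal subgroup generated by odd-order elements, meeting a normal 2-subgroup `S` in central
elements, centralizes `S`. -/
theorem commute_of_subnormal {X A S : Subgroup G} (hAX : A ≤ X)
    (hsub : (A.subgroupOf X).IsSubnormal) (hSX : S ≤ X) (hXS : X ≤ normalizer (S : Set G))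
    (hS : IsPGroup 2 S) (hodd : A ≤ Cfsg.oddGenerated A)
    (hcent : ∀ a ∈ A, a ∈ S → ∀ b ∈ A, a * b = b * a) :
    A ≤ centralizer (S : Set G) := by
  have hSA := normalizes_of_subnormal hAX hsub hSX hXS hS hodd
  refine le_of_oddGen hodd ?_
  intro y hy hyo
  rw [Subgroup.mem_centralizer_iff]
  intro s hs
  have hcS : s⁻¹ * y * s * y⁻¹ ∈ S := by
    have h1 : y * s * y⁻¹ ∈ S := conj_mem_of_le_normalizer (hXS (hAX hy)) hs
    have h2 : s⁻¹ * y * s * y⁻¹ = s⁻¹ * (y * s * y⁻¹) := by group
    rw [h2]
    exact S.mul_mem (S.inv_mem hs) h1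
  have hcA : s⁻¹ * y * s * y⁻¹ ∈ A := by
    have h1 : s⁻¹ * y * s ∈ A := by
      have := conj_mem_of_le_normalizer (hSA (S.inv_mem hs)) hy
      simpa using this
    exact A.mul_mem h1 (A.inv_mem hy)
  obtain ⟨e, he⟩ := hS ⟨_, hcS⟩
  have he' : (s⁻¹ * y * s * y⁻¹) ^ 2 ^ e = 1 := by
    simpa using congrArg Subtype.val he
  have := commute_of_odd_of_comm hyo (pow_orderOf_eq_one y) (hcent _ hcA hcS y hy) he'
  exact this.symm

/-! ### The main lemma -/

/-- The main local lemma. Let `H` be a subgroup of `G` with a normal 2-subgroup `Q` containing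
`C_H(Q)`, and let `S ≤ H` be a 2-subgroup. If `A ≤ H`, generated by odd-order elements, centralizes `S`
and `N_Q(S)`, then `A ≤ Q`. -/
theorem le_of_centralizes_normalizer [Finite G] {H Q S A : Subgroup G}
    (hQH : Q ≤ H) (hHQ : H ≤ normalizer (Q : Set G)) (hQ : IsPGroup 2 Q)
    (hC : H ⊓ centralizer (Q : Set G) ≤ Q) (hSH : S ≤ H) (hS : IsPGroup 2 S)
    (hAH : A ≤ H) (hodd : A ≤ Cfsg.oddGenerated A)
    (hAS : A ≤ centralizer (S : Set G))
    (hAN : A ≤ centralizer ((Q ⊓ normalizer (S : Set G) : Subgroup G) : Set G)) : A ≤ Q := by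
  have : Fact (Nat.Prime 2) := ⟨Nat.prime_two⟩
  set R := S ⊔ Q with hR
  have hRp : IsPGroup 2 R := IsPGroup.to_sup_of_normal_right' hS hQ (hSH.trans hHQ)
  -- `A` normalizes `R`
  have hAR : A ≤ normalizer (R : Set G) := by
    intro a ha
    have hconj : ∀ a ∈ A, ∀ r ∈ R, a * r * a⁻¹ ∈ R := by
      intro a ha r hr
      obtain ⟨s, hs, q, hq, rfl⟩ := mem_sup_of_le_normalizer (hSH.trans hHQ) hr
      have h1 : a * s * a⁻¹ = s := by
        have := (Subgroup.mem_centralizer_iff.mp (hAS ha)) s hs
        rw [← this]; group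
      have h2 : a * q * a⁻¹ ∈ Q := conj_mem_of_le_normalizer (hHQ (hAH ha)) hq
      have h3 : a * (s * q) * a⁻¹ = (a * s * a⁻¹) * (a * q * a⁻¹) := by group
      rw [h3, h1]
      exact R.mul_mem (le_sup_left (a := S) hs) (le_sup_right (a := S) h2)
    rw [Subgroup.mem_normalizer_iff]
    intro r
    refine ⟨fun hr => hconj a ha r hr, fun hr => ?_⟩
    have := hconj a⁻¹ (A.inv_mem ha) _ hr
    simpa [mul_assoc] using this
  set D := R ⊓ centralizer (A : Set G) with hD
  have hSD : S ≤ D := by
    refine le_inf le_sup_left ?_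
    intro s hs
    rw [Subgroup.mem_centralizer_iff]
    intro a ha
    exact ((Subgroup.mem_centralizer_iff.mp (hAS ha)) s hs).symm
  -- key: if `x ∈ R` normalizes `D`, then `x ∈ D`.
  have hkey : ∀ x ∈ R, x ∈ normalizer (D : Set G) → x ∈ D := by
    intro x hxR hxN
    refine ⟨hxR, ?_⟩
    show x ∈ centralizer (A : Set G)
    rw [Subgroup.mem_centralizer_iff]
    intro a ha
    -- reduce to odd order elements
    have hle : A ≤ centralizer ({x} : Set G) := by
      refine le_of_oddGen hodd ?_
      intro y hy hyo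
      rw [Subgroup.mem_centralizer_iff]
      intro x' hx'
      rw [Set.mem_singleton_iff] at hx'
      rw [hx']
      -- `c = x⁻¹ y x y⁻¹`
      set c := x⁻¹ * y * x * y⁻¹ with hc
      have hcR : c ∈ R := by
        have h1 : y * x * y⁻¹ ∈ R := conj_mem_of_le_normalizer (hAR hy) hxR
        have h2 : c = x⁻¹ * (y * x * y⁻¹) := by rw [hc]; group
        rw [h2]
        exact R.mul_mem (R.inv_mem hxR) h1
      -- `c` centralizes `S`
      have hcS : c ∈ centralizer (S : Set G) := by
        rw [Subgroup.mem_centralizer_iff]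
        intro s hs
        have hsD : x * s * x⁻¹ ∈ D := conj_mem_of_le_normalizer hxN (hSD hs)
        have h1 : (x * s * x⁻¹) * y = y * (x * s * x⁻¹) := by
          have := (Subgroup.mem_centralizer_iff.mp hsD.2) y hy
          exact this.symm
        have h2 : s * y = y * s := (Subgroup.mem_centralizer_iff.mp (hAS hy)) s hs |>.symm ▸ rfl
        have h3 : s * (x⁻¹ * y * x) = (x⁻¹ * y * x) * s := by
          have h4 : x⁻¹ * ((x * s * x⁻¹) * y) * x = x⁻¹ * (y * (x * s * x⁻¹)) * x := by rw [h1]
          have h5 : x⁻¹ * ((x * s * x⁻¹) * y) * x = s * (x⁻¹ * y * x) := by group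
          have h6 : x⁻¹ * (y * (x * s * x⁻¹)) * x = (x⁻¹ * y * x) * s := by group
          rw [h5, h6] at h4
          exact h4
        have h7 : s * y⁻¹ = y⁻¹ * s := by
          have : y⁻¹ * (s * y) * y⁻¹ = y⁻¹ * (y * s) * y⁻¹ := by rw [h2]
          simpa [mul_assoc] using this.symm
        calc s * c = (s * (x⁻¹ * y * x)) * y⁻¹ := by rw [hc]; group
          _ = (x⁻¹ * y * x) * (s * y⁻¹) := by rw [h3]; group
          _ = (x⁻¹ * y * x) * (y⁻¹ * s) := by rw [h7]
          _ = c * s := by rw [hc]; group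
      -- `c` is centralized by `A`
      have hcA : c ∈ centralizer (A : Set G) := by
        obtain ⟨s, hs, q, hq, hsq⟩ := mem_sup_of_le_normalizer (hSH.trans hHQ) hcR
        have hcN : c ∈ normalizer (S : Set G) := Subgroup.centralizer_le_normalizer _ hcS
        have hqN : q ∈ normalizer (S : Set G) := by
          have hsN : s ∈ normalizer (S : Set G) := Subgroup.le_normalizer hs
          have : q = s⁻¹ * c := by rw [← hsq]; group
          rw [this]
          exact Subgroup.mul_mem _ (Subgroup.inv_mem _ hsN) hcN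
        have hsC : s ∈ centralizer (A : Set G) := (hSD hs).2
        have hqC : q ∈ centralizer (A : Set G) := by
          rw [Subgroup.mem_centralizer_iff]
          intro a ha
          exact ((Subgroup.mem_centralizer_iff.mp (hAN ha)) q ⟨hq, hqN⟩).symm
        rw [← hsq]
        exact Subgroup.mul_mem _ hsC hqC
      -- conclude
      obtain ⟨e, he⟩ := hRp ⟨c, hcR⟩
      have he' : c ^ 2 ^ e = 1 := by simpa using congrArg Subtype.val he
      have hcy : c * y = y * c := by
        exact ((Subgroup.mem_centralizer_iff.mp hcA) y hy).symm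
      have := commute_of_odd_of_comm hyo (pow_orderOf_eq_one y) hcy he'
      exact this.symm
    have := (Subgroup.mem_centralizer_iff.mp (hle ha)) x (Set.mem_singleton x)
    exact this.symm
  -- `D = R` by the normalizer condition in the 2-group `R`
  have hDR : R ≤ D := by
    by_contra hne
    have hlt : D.subgroupOf R < ⊤ := by
      rw [lt_top_iff_ne_top]
      intro htop
      apply hne
      intro r hr
      have : (⟨r, hr⟩ : R) ∈ D.subgroupOf R := by rw [htop]; trivial
      simpa [Subgroup.mem_subgroupOf] using this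
    have : Group.IsNilpotent R := hRp.isNilpotent
    have hnc := Group.normalizerCondition_of_isNilpotent (G := R) _ hlt
    obtain ⟨⟨x, hxR⟩, hx1, hx2⟩ := SetLike.exists_of_lt hnc
    apply hx2
    rw [Subgroup.mem_subgroupOf]
    refine hkey x hxR ?_
    rw [Subgroup.mem_normalizer_iff]
    intro t
    rw [Subgroup.mem_normalizer_iff] at hx1
    constructor
    · intro ht
      have htR : t ∈ R := ht.1
      have := (hx1 ⟨t, htR⟩).mp (by simpa [Subgroup.mem_subgroupOf] using ht)
      simpa [Subgroup.mem_subgroupOf] using this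
    · intro ht
      have htR : t ∈ R := by
        have h1 : x * t * x⁻¹ ∈ R := ht.1
        have h2 : t = x⁻¹ * (x * t * x⁻¹) * x := by group
        rw [h2]
        exact R.mul_mem (R.mul_mem (R.inv_mem hxR) h1) hxR
      have := (hx1 ⟨t, htR⟩).mpr (by simpa [Subgroup.mem_subgroupOf] using ht)
      simpa [Subgroup.mem_subgroupOf] using this
  -- conclude
  intro a ha
  refine hC ⟨hAH ha, ?_⟩
  show a ∈ centralizer (Q : Set G)
  rw [Subgroup.mem_centralizer_iff]
  intro q hq
  have hqD := hDR (le_sup_right (a := S) hq)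
  exact (Subgroup.mem_centralizer_iff.mp hqD.2) a ha |>.symm

end Cfsg.Agent.Lib.Quasithin.CharTwo
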