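/-
Quasithin block, part 2: "good" subgroups (quasisimple or of odd order), subnormality in an ambient
group, and the equivalence between `C_X(O_2(X)) ≤ O_2(X)`, absence of good subnormal subgroups and
`F*(X) = O_2(X)`, together with the passage to 2-locals.
-/
import Mathlib
import Cfsg.Agent.Lib.Quasithin.CharTwo
import Cfsg.Agent.Lib.Core.Basic
import Cfsg.Agent.Lib.Components.Basic

set_option autoImplicit false

open Subgroup Cfsg
open scoped commutatorElement
open Cfsg.Agent.Lib.Quasithin.CharTwo
open Cfsg.Agent.Lib.Components.Basic (quasisimple_nontrivial quasisimple_not_nilpotent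
  normal_eq_top_or_le_center quasisimple_of_normal_criterion quasisimple_map_subtype_iff
  ne_bot_of_quasisimple commutator_self_of_quasisimple)
open Cfsg.Agent.Lib.Core.Basic (le_pCore pCore_isPGroup le_pCore_of_isSubnormal le_fittingSubgroup)

namespace Cfsg.Agent.Lib.Quasithin.Good

universe u

variable {G : Type*} [Group G]

/-! ### Good subgroups -/

/-- `A` is good: quasisimple or of odd order. -/
def IsGood (A : Subgroup G) : Prop := IsQuasisimple A ∨ Odd (Nat.card A)

theorem IsGood.oddGen [Finite G] {A : Subgroup G} (h : IsGood A) : A ≤ Cfsg.oddGenerated A := by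
  rcases h with h | h
  · exact le_oddGenerated_of_perfect (commutator_self_of_quasisimple h)
  · exact le_oddGenerated_of_odd h

theorem IsGood.eq_bot_of_isPGroup [Finite G] {A : Subgroup G} (h : IsGood A) (hp : IsPGroup 2 A) :
    A = ⊥ := by
  have : Fact (Nat.Prime 2) := ⟨Nat.prime_two⟩
  rcases h with h | h
  · exact absurd hp.isNilpotent (quasisimple_not_nilpotent h)
  · obtain ⟨k, hk⟩ := IsPGroup.iff_card.mp hp
    refine Subgroup.eq_bot_of_card_eq _ ?_
    rw [hk] at h ⊢
    cases k with
    | zero => simp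
    | succ k =>
      exact absurd h (Nat.not_odd_iff_even.mpr (Nat.even_pow.mpr ⟨even_two, by omega⟩))

theorem IsGood.central [Finite G] {A S : Subgroup G} (h : IsGood A) (hS : IsPGroup 2 S)
    (hN : A ≤ normalizer (S : Set G)) : ∀ a ∈ A, a ∈ S → ∀ b ∈ A, a * b = b * a := by
  have hfact : Fact (Nat.Prime 2) := ⟨Nat.prime_two⟩
  rcases h with h | h
  · intro a ha haS b hb
    have hNn : (S.subgroupOf A).Normal := normal_subgroupOf_of_le_normalizer hN
    rcases normal_eq_top_or_le_center h (S.subgroupOf A) with htop | hc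
    · exfalso
      have hAS : A ≤ S := by
        intro x hx
        have : (⟨x, hx⟩ : A) ∈ S.subgroupOf A := by rw [htop]; trivial
        simpa [Subgroup.mem_subgroupOf] using this
      exact absurd (hS.to_le hAS).isNilpotent (quasisimple_not_nilpotent h)
    · have h1 : (⟨a, ha⟩ : A) ∈ center A := hc (by simpa [Subgroup.mem_subgroupOf] using haS)
      have h2 := (Subgroup.mem_center_iff.mp h1) ⟨b, hb⟩
      have h3 := congrArg Subtype.val h2
      exact h3.symm
  · intro a ha haS b hb
    have h1 : orderOf (⟨a, ha⟩ : A) ∣ Nat.card A := orderOf_dvd_natCard _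
    rw [Subgroup.orderOf_mk] at h1
    have hodd : Odd (orderOf a) := Odd.of_dvd_nat h h1
    obtain ⟨e, he⟩ := hS ⟨a, haS⟩
    have he' : a ^ 2 ^ e = 1 := by simpa using congrArg Subtype.val he
    have ha1 : a = 1 := eq_one_of_pow_eq_one_of_coprime (coprime_two_pow_of_odd hodd)
      (pow_orderOf_eq_one a) he'
    rw [ha1]; simp

/-! ### Subnormality in an ambient group -/

/-- `A` is subnormal in the subgroup `Y`, seen in the ambient group. -/
def SN (A Y : Subgroup G) : Prop := A ≤ Y ∧ (A.subgroupOf Y).IsSubnormal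

theorem SN.refl (Y : Subgroup G) : SN Y Y := by
  refine ⟨le_rfl, ?_⟩
  rw [subgroupOf_self]
  exact IsSubnormal.top

theorem SN.step {B C Y : Subgroup G} (hBC : B ≤ C) (hCB : C ≤ normalizer (B : Set G))
    (hC : SN C Y) : SN B Y := by
  refine ⟨hBC.trans hC.1, ?_⟩
  refine IsSubnormal.step (B.subgroupOf Y) (C.subgroupOf Y) ?_ hC.2 ?_
  · intro x hx
    exact hBC hx
  · apply normal_subgroupOf_of_le_normalizer
    intro x hx
    rw [Subgroup.mem_normalizer_iff]
    intro h
    have hx' : (x : G) ∈ normalizer (B : Set G) := hCB hx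
    rw [Subgroup.mem_subgroupOf, Subgroup.mem_subgroupOf]
    simpa using Subgroup.mem_normalizer_iff.mp hx' (h : G)

theorem SN.of_normal {A Y : Subgroup G} (h : A ≤ Y) (hN : Y ≤ normalizer (A : Set G)) : SN A Y :=
  SN.step h hN (SN.refl Y)

theorem SN.rec' {A Y : Subgroup G} (h : SN A Y) {motive : Subgroup G → Prop} (top : motive Y)
    (step : ∀ B C : Subgroup G, B ≤ C → C ≤ Y → C ≤ normalizer (B : Set G) → motive C → motive B) :
    motive A :=
  subnormal_rec h.1 h.2 top step

theorem SN.trans {A K Y : Subgroup G} (h1 : SN A K) (h2 : SN K Y) : SN A Y :=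
  h1.rec' (motive := fun B => SN B Y) h2 (fun _ _ hBC _ hCB hC => SN.step hBC hCB hC)

theorem SN.restrict {A X X' : Subgroup G} (h : SN A X) (h1 : A ≤ X') (h2 : X' ≤ X) : SN A X' := by
  have key : SN (A ⊓ X') X' := by
    refine h.rec' (motive := fun B => SN (B ⊓ X') X') ?_ ?_
    · rw [inf_eq_right.mpr h2]
      exact SN.refl X'
    · intro B C hBC _ hCB hC
      refine SN.step (inf_le_inf_right _ hBC) ?_ hC
      intro x hx
      rw [Subgroup.mem_normalizer_iff]
      intro y
      have hxN := Subgroup.mem_normalizer_iff.mp (hCB hx.1) y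
      constructor
      · rintro ⟨hy1, hy2⟩
        exact ⟨hxN.mp hy1, X'.mul_mem (X'.mul_mem hx.2 hy2) (X'.inv_mem hx.2)⟩
      · rintro ⟨hy1, hy2⟩
        refine ⟨hxN.mpr hy1, ?_⟩
        have : y = x⁻¹ * (x * y * x⁻¹) * x := by group
        rw [this]
        exact X'.mul_mem (X'.mul_mem (X'.inv_mem hx.2) hy2) hx.2
  rwa [inf_eq_left.mpr h1] at key

/-! ### Commuting with normal 2-subgroups -/

theorem good_commute [Finite G] {X A S : Subgroup G} (hA : SN A X) (hSX : S ≤ X)
    (hXS : X ≤ normalizer (S : Set G)) (hS : IsPGroup 2 S) (hg : IsGood A) :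
    A ≤ centralizer (S : Set G) :=
  commute_of_subnormal hA.1 hA.2 hSX hXS hS hg.oddGen (hg.central hS (hA.1.trans hXS))

/-! ### Characteristic 2, ambient form -/

/-- `H` has a normal 2-subgroup `Q` containing its centralizer in `H`. -/
def Char2In (H : Subgroup G) : Prop :=
  ∃ Q : Subgroup G, Q ≤ H ∧ H ≤ normalizer (Q : Set G) ∧ IsPGroup 2 Q ∧
    H ⊓ centralizer (Q : Set G) ≤ Q

/-- `H` has no good subnormal subgroups other than the trivial one. -/
def NoGood (H : Subgroup G) : Prop := ∀ A : Subgroup G, SN A H → IsGood A → A = ⊥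

theorem NoGood.of_sn {K Y : Subgroup G} (h : NoGood Y) (hK : SN K Y) : NoGood K :=
  fun A hA hg => h A (hA.trans hK) hg

/-- If `Q ≤ Y ≤ H` and `H ⊓ C(Q) ≤ Q` then `Y` has no good subnormal subgroups. -/
theorem noGood_of_le {H Q Y : Subgroup G} [Finite G] (hQY : Q ≤ Y) (hYH : Y ≤ H)
    (hHQ : H ≤ normalizer (Q : Set G)) (hQ : IsPGroup 2 Q) (hC : H ⊓ centralizer (Q : Set G) ≤ Q) :
    NoGood Y := by
  intro A hA hg
  have h1 := good_commute hA hQY (hYH.trans hHQ) hQ hg
  have h2 : A ≤ Q := fun a ha => hC ⟨hYH (hA.1 ha), h1 ha⟩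
  exact hg.eq_bot_of_isPGroup (hQ.to_le h2)

theorem Char2In.noGood [Finite G] {H : Subgroup G} (h : Char2In H) : NoGood H := by
  obtain ⟨Q, hQH, hHQ, hQ, hC⟩ := h
  exact noGood_of_le hQH le_rfl hHQ hQ hC

/-- The 2-local step: `N_H(S)` has no good subnormal subgroups. -/
theorem noGood_inf_normalizer [Finite G] {H S : Subgroup G} (hH : Char2In H) (hSH : S ≤ H)
    (hS : IsPGroup 2 S) : NoGood (H ⊓ normalizer (S : Set G)) := by
  obtain ⟨Q, hQH, hHQ, hQ, hC⟩ := hH
  intro A hA hg
  have hXS : H ⊓ normalizer (S : Set G) ≤ normalizer (S : Set G) := inf_le_right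
  have hSX : S ≤ H ⊓ normalizer (S : Set G) := le_inf hSH (le_normalizer)
  have h1 : A ≤ centralizer (S : Set G) := good_commute hA hSX hXS hS hg
  have hVX : Q ⊓ normalizer (S : Set G) ≤ H ⊓ normalizer (S : Set G) :=
    inf_le_inf_right _ hQH
  have hXV : H ⊓ normalizer (S : Set G) ≤ normalizer ((Q ⊓ normalizer (S : Set G) : Subgroup G) : Set G) := by
    intro x hx
    rw [Subgroup.mem_normalizer_iff]
    intro y
    have hxQ := Subgroup.mem_normalizer_iff.mp (hHQ hx.1) y
    constructor
    · rintro ⟨hy1, hy2⟩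
      exact ⟨hxQ.mp hy1, Subgroup.mul_mem _ (Subgroup.mul_mem _ hx.2 hy2) (Subgroup.inv_mem _ hx.2)⟩
    · rintro ⟨hy1, hy2⟩
      refine ⟨hxQ.mpr hy1, ?_⟩
      have : y = x⁻¹ * (x * y * x⁻¹) * x := by group
      rw [this]
      exact Subgroup.mul_mem _ (Subgroup.mul_mem _ (Subgroup.inv_mem _ hx.2) hy2) hx.2
  have hVp : IsPGroup 2 (Q ⊓ normalizer (S : Set G) : Subgroup G) := hQ.to_le inf_le_left
  have h2 := good_commute hA hVX hXV hVp hg
  have h3 : A ≤ Q := le_of_centralizes_normalizer hQH hHQ hQ hC hSH hS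
    (hA.1.trans inf_le_left) hg.oddGen h1 h2
  exact hg.eq_bot_of_isPGroup (hQ.to_le h3)

/-- The tower step: if `N(P)` has characteristic 2 and `P ≤ P₁ ≤ N(P)` with `P₁` a 2-group, then
`N(P₁)` has no good subnormal subgroups. -/
theorem noGood_normalizer_tower [Finite G] {P P₁ : Subgroup G}
    (hH : Char2In (normalizer (P : Set G))) (hPP : P ≤ P₁) (hP₁ : P₁ ≤ normalizer (P : Set G))
    (hp : IsPGroup 2 P₁) : NoGood (normalizer (P₁ : Set G)) := by
  intro A hA hg
  have h1 : A ≤ centralizer (P₁ : Set G) :=
    good_commute hA (le_normalizer) le_rfl hp hg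
  have h2 : A ≤ normalizer (P : Set G) := by
    refine le_trans ?_ (centralizer_le_normalizer _)
    refine h1.trans ?_
    exact centralizer_le hPP
  have hA' : SN A (normalizer (P : Set G) ⊓ normalizer (P₁ : Set G)) :=
    hA.restrict (le_inf h2 hA.1) inf_le_right
  exact noGood_inf_normalizer hH hP₁ hp A hA' hg

/-! ### Type-level versions -/

/-- `X` has no good subnormal subgroups other than the trivial one. -/
def NoGoodT (X : Type*) [Group X] : Prop :=
  ∀ A : Subgroup X, A.IsSubnormal → IsGood A → A = ⊥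

theorem IsGood.map_subtype {H : Subgroup G} {A : Subgroup H} (h : IsGood A) : IsGood (A.map H.subtype) := by
  rcases h with h | h
  · exact Or.inl ((quasisimple_map_subtype_iff A).2 h)
  · right
    rwa [← Nat.card_congr (A.equivMapOfInjective H.subtype H.subtype_injective).toEquiv]

theorem SN.map_subtype {H : Subgroup G} {A : Subgroup H} (h : A.IsSubnormal) :
    SN (A.map H.subtype) H := by
  refine ⟨map_subtype_le _, ?_⟩
  rw [Subgroup.subgroupOf, Subgroup.comap_map_eq_self_of_injective H.subtype_injective]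
  exact h

theorem NoGood.toT {H : Subgroup G} (h : NoGood H) : NoGoodT H := by
  intro A hA hg
  have := h _ (SN.map_subtype hA) hg.map_subtype
  exact (Subgroup.map_eq_bot_iff_of_injective _ H.subtype_injective).mp this

theorem char2In_of_isOfCharacteristicTwo [Finite G] {H : Subgroup G} (h : IsOfCharacteristicTwo H) :
    Char2In H := by
  refine ⟨(pCore 2 H).map H.subtype, map_subtype_le _, ?_, ?_, ?_⟩
  · intro x hx
    rw [Subgroup.mem_normalizer_iff]
    intro y
    have hN : (pCore 2 H).Normal := inferInstance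
    constructor
    · rintro ⟨y', hy', rfl⟩
      refine ⟨⟨x, hx⟩ * y' * ⟨x, hx⟩⁻¹, hN.conj_mem _ hy' _, ?_⟩
      simp
    · rintro ⟨y', hy', hy⟩
      have hyH : y = ((⟨x, hx⟩⁻¹ * y' * ⟨x, hx⟩ : H) : G) := by
        simp only [Subgroup.coe_subtype] at hy
        simp only [InvMemClass.coe_inv, MulMemClass.coe_mul]
        rw [hy]
        group
      refine ⟨⟨x, hx⟩⁻¹ * y' * ⟨x, hx⟩, ?_, hyH.symm⟩
      have := hN.conj_mem _ hy' (⟨x, hx⟩⁻¹)
      simpa using this
  · exact (pCore_isPGroup (p := 2) (G := H)).map H.subtype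
  · rintro x ⟨hxH, hxC⟩
    have : (⟨x, hxH⟩ : H) ∈ centralizer (pCore 2 H : Set H) := by
      rw [Subgroup.mem_centralizer_iff]
      intro y hy
      have := (Subgroup.mem_centralizer_iff.mp hxC) (y : G) ⟨y, hy, rfl⟩
      exact Subtype.ext this
    exact ⟨_, h this, rfl⟩

section TypeLevel

variable {X : Type u} [Group X] [Finite X]

theorem perfect_of_commutator_eq {W : Subgroup X} (h : ⁅W, W⁆ = W) : commutator W = ⊤ := by
  rw [_root_.commutator_def, eq_top_iff]
  have h2 : (⁅(⊤ : Subgroup W), (⊤ : Subgroup W)⁆).map W.subtype = W := by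
    rw [Subgroup.map_commutator]
    have : (⊤ : Subgroup W).map W.subtype = W := by
      rw [← MonoidHom.range_eq_map, Subgroup.range_subtype]
    rw [this, h]
  intro x _
  have hx : (x : X) ∈ (⁅(⊤ : Subgroup W), (⊤ : Subgroup W)⁆).map W.subtype := by
    rw [h2]; exact x.2
  obtain ⟨y, hy, hxy⟩ := hx
  have : y = x := Subtype.ext hxy
  rwa [← this]

/-- Absence of good subnormal subgroups gives characteristic 2. -/
theorem char2_of_noGoodT (h : NoGoodT X) : IsOfCharacteristicTwo X := by
  classical
  set Q := pCore 2 X with hQdef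
  have hQn : Q.Normal := inferInstance
  have hQp : IsPGroup 2 Q := pCore_isPGroup
  show centralizer (Q : Set X) ≤ Q
  by_contra hC
  let 𝔚 : Set (Subgroup X) := {W | W.IsSubnormal ∧ W ≤ centralizer (Q : Set X) ∧ ¬ W ≤ Q}
  have hne : 𝔚.Nonempty := ⟨centralizer (Q : Set X), (normal_centralizer).isSubnormal, le_rfl, hC⟩
  obtain ⟨W, hW⟩ := (Set.toFinite 𝔚).exists_minimal hne
  obtain ⟨⟨hWs, hWC, hWQ⟩, hmin⟩ := hW
  -- every proper normal subgroup of W lies in Q
  have hprop : ∀ N : Subgroup X, N ≤ W → W ≤ normalizer (N : Set X) → N ≠ W → N ≤ Q := by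
    intro N hNW hWN hne
    by_contra hNQ
    have hNs : N.IsSubnormal :=
      IsSubnormal.step N W hNW hWs (normal_subgroupOf_of_le_normalizer hWN)
    have hWN' : W ≤ N := hmin ⟨hNs, hNW.trans hWC, hNQ⟩ hNW
    exact hne (le_antisymm hNW hWN')
  have hWbot : W ≠ ⊥ := by
    rintro rfl
    exact hWQ bot_le
  by_cases hperf : ⁅W, W⁆ = W
  · have hnt : Nontrivial W := (Subgroup.nontrivial_iff_ne_bot W).mpr hWbot
    have hq : IsQuasisimple W := by
      refine quasisimple_of_normal_criterion (perfect_of_commutator_eq hperf) ?_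
      intro N hN
      by_cases htop : N = ⊤
      · exact Or.inl htop
      right
      have hNW : N.map W.subtype ≤ W := map_subtype_le _
      have hWN : W ≤ normalizer ((N.map W.subtype : Subgroup X) : Set X) := by
        intro x hx
        rw [Subgroup.mem_normalizer_iff]
        intro y
        constructor
        · rintro ⟨y', hy', rfl⟩
          refine ⟨⟨x, hx⟩ * y' * ⟨x, hx⟩⁻¹, hN.conj_mem _ hy' _, ?_⟩
          simp
        · rintro ⟨y', hy', hy⟩
          have hyH : y = ((⟨x, hx⟩⁻¹ * y' * ⟨x, hx⟩ : W) : X) := by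
            simp only [Subgroup.coe_subtype] at hy
            simp only [InvMemClass.coe_inv, MulMemClass.coe_mul]
            rw [hy]
            group
          refine ⟨⟨x, hx⟩⁻¹ * y' * ⟨x, hx⟩, ?_, hyH.symm⟩
          have := hN.conj_mem _ hy' (⟨x, hx⟩⁻¹)
          simpa using this
      have hNe : N.map W.subtype ≠ W := by
        intro heq
        apply htop
        rw [eq_top_iff]
        intro y _
        have : (y : X) ∈ N.map W.subtype := by rw [heq]; exact y.2
        obtain ⟨y', hy', hyy⟩ := this
        have : y' = y := Subtype.ext hyy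
        rwa [← this]
      have hNQ := hprop _ hNW hWN hNe
      intro n hn
      rw [Subgroup.mem_center_iff]
      intro w
      have h1 : (n : X) ∈ Q := hNQ ⟨n, hn, rfl⟩
      have h2 := (Subgroup.mem_centralizer_iff.mp (hWC w.2)) _ h1
      exact Subtype.ext h2.symm
    exact hWbot (h W hWs (Or.inl hq))
  · -- the commutator subgroup lies in `Q`, hence W is a 2-group
    have hcomm_le : ⁅W, W⁆ ≤ W := Subgroup.commutator_le_self W
    have hcomm_norm : W ≤ normalizer ((⁅W, W⁆ : Subgroup X) : Set X) := by
      intro x hx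
      rw [Subgroup.mem_normalizer_iff]
      intro y
      have hkey : ∀ w ∈ W, ∀ z ∈ ⁅W, W⁆, w * z * w⁻¹ ∈ ⁅W, W⁆ := by
        intro w hw z hz
        have hz' := hcomm_le hz
        have : w * z * w⁻¹ = ⁅w, z⁆ * z := by
          rw [commutatorElement_def]; group
        rw [this]
        exact Subgroup.mul_mem _ (Subgroup.commutator_mem_commutator hw hz') hz
      constructor
      · exact hkey x hx y
      · intro hy
        have := hkey x⁻¹ (W.inv_mem hx) _ hy
        simpa [mul_assoc] using this
    have hcQ := hprop _ hcomm_le hcomm_norm hperf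
    have hWp : IsPGroup 2 W := by
      rcases Nat.eq_two_pow_or_exists_odd_prime_and_dvd (Nat.card W) with ⟨k, hk⟩ | ⟨r, hr, hrd, hrodd⟩
      · exact IsPGroup.of_card hk
      · exfalso
        have : Fact r.Prime := ⟨hr⟩
        obtain ⟨y, hy⟩ := exists_prime_orderOf_dvd_card' (G := W) r hrd
        set y₀ : X := (y : X) with hy₀
        have hy₀W : y₀ ∈ W := y.2
        have hzW : zpowers y₀ ≤ W := by
          rw [Subgroup.zpowers_le]; exact hy₀W
        set B := zpowers y₀ ⊔ ⁅W, W⁆ with hB
        have hBW : B ≤ W := sup_le hzW hcomm_le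
        have hWB : W ≤ normalizer (B : Set X) := by
          have hkey : ∀ w ∈ W, ∀ z ∈ B, w * z * w⁻¹ ∈ B := by
            intro w hw z hz
            have hz' := hBW hz
            have : w * z * w⁻¹ = ⁅w, z⁆ * z := by
              rw [commutatorElement_def]; group
            rw [this]
            exact B.mul_mem (le_sup_right (a := zpowers y₀)
              (Subgroup.commutator_mem_commutator hw hz')) hz
          intro x hx
          rw [Subgroup.mem_normalizer_iff]
          intro y
          constructor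
          · exact hkey x hx y
          · intro hy
            have := hkey x⁻¹ (W.inv_mem hx) _ hy
            simpa [mul_assoc] using this
        have hBz : B ≤ normalizer ((zpowers y₀ : Subgroup X) : Set X) := by
          refine sup_le le_normalizer ?_
          refine le_trans ?_ (centralizer_le_normalizer _)
          intro c hc
          rw [Subgroup.mem_centralizer_iff]
          intro t ht
          have htW : t ∈ W := hzW ht
          have h1 : c ∈ Q := hcQ hc
          exact ((Subgroup.mem_centralizer_iff.mp (hWC htW)) c h1).symm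
        have hBs : B.IsSubnormal :=
          IsSubnormal.step B W hBW hWs (normal_subgroupOf_of_le_normalizer hWB)
        have hzs : (zpowers y₀).IsSubnormal :=
          IsSubnormal.step _ B (le_sup_left) hBs (normal_subgroupOf_of_le_normalizer hBz)
        have hord : orderOf y₀ = r := by
          rw [hy₀, Subgroup.orderOf_coe]; exact hy
        have hg : IsGood (zpowers y₀) := by
          right
          rw [Nat.card_zpowers, hord]
          exact hrodd
        have hbot := h _ hzs hg
        rw [Subgroup.zpowers_eq_bot] at hbot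
        rw [hbot, orderOf_one] at hord
        exact hr.one_lt.ne hord
    exact hWQ (le_pCore_of_isSubnormal hWs hWp)

/-- A normal nilpotent subgroup of a group without good subnormal subgroups is a 2-group. -/
theorem isPGroup_of_nilpotent_normal (h : NoGoodT X) {N : Subgroup X} (hN : N.Normal)
    (hnil : Group.IsNilpotent N) : IsPGroup 2 N := by
  rcases Nat.eq_two_pow_or_exists_odd_prime_and_dvd (Nat.card N) with ⟨k, hk⟩ | ⟨r, hr, hrd, hrodd⟩
  · exact IsPGroup.of_card hk
  · exfalso
    have hfact : Fact r.Prime := ⟨hr⟩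
    obtain ⟨P⟩ : Nonempty (Sylow r N) := Sylow.nonempty
    have htfae : Group.IsNilpotent N ↔ ∀ (p : ℕ), Fact p.Prime → ∀ P : Sylow p N,
        (P : Subgroup N).Normal := (Group.isNilpotent_of_finite_tfae (G := N)).out 0 3
    have hPn : (P : Subgroup N).Normal := htfae.mp hnil r hfact P
    have hs : ((P : Subgroup N).map N.subtype).IsSubnormal :=
      hPn.isSubnormal.trans' hN.isSubnormal
    have hodd : Odd (Nat.card P) := by
      obtain ⟨k, hk⟩ := IsPGroup.iff_card.mp P.isPGroup'
      rw [hk]
      exact hrodd.pow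
    have hg : IsGood ((P : Subgroup N).map N.subtype) := by
      right
      rwa [← Nat.card_congr ((P : Subgroup N).equivMapOfInjective N.subtype
        N.subtype_injective).toEquiv]
    have hb := h _ hs hg
    rw [Subgroup.map_eq_bot_iff_of_injective _ N.subtype_injective] at hb
    have h1 := P.not_dvd_index
    rw [hb, Subgroup.index_bot] at h1
    exact h1 hrd

/-- Absence of good subnormal subgroups gives `F*(X) = O_2(X)`. -/
theorem fStar_of_noGoodT (h : NoGoodT X) : generalizedFittingSubgroup X = pCore 2 X := by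
  have hfact : Fact (Nat.Prime 2) := ⟨Nat.prime_two⟩
  have hl : layer X = ⊥ := by
    rw [layer, sSup_eq_bot]
    rintro K ⟨hKs, hKq⟩
    exact absurd (h K hKs (Or.inl hKq)) (ne_bot_of_quasisimple hKq)
  rw [generalizedFittingSubgroup, hl, bot_sup_eq]
  apply le_antisymm
  · refine sSup_le ?_
    rintro N ⟨hN, hnil⟩
    exact le_pCore hN (isPGroup_of_nilpotent_normal h hN hnil)
  · refine le_fittingSubgroup inferInstance ?_
    exact (pCore_isPGroup (p := 2) (G := X)).isNilpotent

end TypeLevel

theorem NoGood.fStar {H : Subgroup G} [Finite G] (h : NoGood H) :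
    generalizedFittingSubgroup H = pCore 2 H := fStar_of_noGoodT h.toT

theorem NoGood.char2 {H : Subgroup G} [Finite G] (h : NoGood H) : IsOfCharacteristicTwo H :=
  char2_of_noGoodT h.toT

theorem NoGood.char2In {H : Subgroup G} [Finite G] (h : NoGood H) : Char2In H :=
  char2In_of_isOfCharacteristicTwo h.char2

end Cfsg.Agent.Lib.Quasithin.Good
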