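/-
Quasithin block, part 3: the ambient 2-core `pCoreTwoOf`, `omegaOne` of a centre, basic properties of
members of `calL T` in a group of even characteristic, and the commuting action lemma.
-/
import Mathlib
import Cfsg.Agent.Lib.Quasithin.Good
import Cfsg.Agent.Lib.PGroups.Basic

set_option autoImplicit false

open Subgroup Cfsg
open scoped commutatorElement
open Cfsg.Agent.Lib.Quasithin.CharTwo Cfsg.Agent.Lib.Quasithin.Good
open Cfsg.Agent.Lib.Core.Basic (le_pCore pCore_isPGroup le_pCore_of_isSubnormal)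

namespace Cfsg.Agent.Lib.Quasithin.CalL

variable {G : Type*} [Group G]

/-! ### `pCoreTwoOf` -/

theorem pCoreTwoOf_le (Y : Subgroup G) : pCoreTwoOf Y ≤ Y := map_subtype_le _

theorem le_normalizer_pCoreTwoOf (Y : Subgroup G) :
    Y ≤ normalizer (pCoreTwoOf Y : Set G) := by
  intro x hx
  rw [Subgroup.mem_normalizer_iff]
  intro y
  have hN : (pCore 2 Y).Normal := inferInstance
  constructor
  · rintro ⟨y', hy', rfl⟩
    refine ⟨⟨x, hx⟩ * y' * ⟨x, hx⟩⁻¹, hN.conj_mem _ hy' _, ?_⟩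
    simp
  · rintro ⟨y', hy', hy⟩
    have hyH : y = ((⟨x, hx⟩⁻¹ * y' * ⟨x, hx⟩ : Y) : G) := by
      simp only [Subgroup.coe_subtype] at hy
      simp only [InvMemClass.coe_inv, MulMemClass.coe_mul]
      rw [hy]
      group
    refine ⟨⟨x, hx⟩⁻¹ * y' * ⟨x, hx⟩, ?_, hyH.symm⟩
    have := hN.conj_mem _ hy' (⟨x, hx⟩⁻¹)
    simpa using this

theorem isPGroup_pCoreTwoOf [Finite G] (Y : Subgroup G) : IsPGroup 2 (pCoreTwoOf Y) :=
  (pCore_isPGroup (p := 2) (G := Y)).map Y.subtype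

/-- Normal 2-subgroups of `Y` lie in `O_2(Y)`. -/
theorem le_pCoreTwoOf {Y R : Subgroup G} (hRY : R ≤ Y) (hYR : Y ≤ normalizer (R : Set G))
    (hR : IsPGroup 2 R) : R ≤ pCoreTwoOf Y := by
  have hN : (R.subgroupOf Y).Normal := normal_subgroupOf_of_le_normalizer hYR
  have hp : IsPGroup 2 (R.subgroupOf Y) :=
    hR.of_equiv (subgroupOfEquivOfLe hRY).symm
  have h1 := le_pCore hN hp
  intro x hx
  exact ⟨⟨x, hRY hx⟩, h1 (by simpa [Subgroup.mem_subgroupOf] using hx), rfl⟩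

theorem conj_le_of_le_normalizer {Y R : Subgroup G} {g : G} (hg : g ∈ normalizer (Y : Set G))
    (hRY : R ≤ Y) (hYR : Y ≤ normalizer (R : Set G)) :
    R.map (MulAut.conj g).toMonoidHom ≤ Y ∧
      Y ≤ normalizer ((R.map (MulAut.conj g).toMonoidHom : Subgroup G) : Set G) := by
  constructor
  · rintro _ ⟨r, hr, rfl⟩
    exact conj_mem_of_le_normalizer hg (hRY hr)
  · intro y hy
    rw [Subgroup.mem_normalizer_iff]
    intro t
    have hy' : g⁻¹ * y * g ∈ Y := by
      have := conj_mem_of_le_normalizer (Subgroup.inv_mem _ hg) hy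
      simpa using this
    have hN := Subgroup.mem_normalizer_iff.mp (hYR hy') (g⁻¹ * t * g)
    constructor
    · rintro ⟨r, hr, rfl⟩
      have hr' := hN.mp (by simpa [mul_assoc] using hr)
      refine ⟨_, hr', ?_⟩
      simp only [MulEquiv.coe_toMonoidHom, MulAut.conj_apply]
      group
    · rintro ⟨r, hr, hrt⟩
      simp only [MulEquiv.coe_toMonoidHom, MulAut.conj_apply] at hrt
      have h2 : g⁻¹ * y * g * (g⁻¹ * t * g) * (g⁻¹ * y * g)⁻¹ = r := by
        have : t = y⁻¹ * (g * r * g⁻¹) * y := by rw [hrt]; group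
        rw [this]; group
      have hr' : g⁻¹ * t * g ∈ R := hN.mpr (by rw [h2]; exact hr)
      exact ⟨_, hr', by simp only [MulEquiv.coe_toMonoidHom, MulAut.conj_apply]; group⟩

/-- `N(Y)` normalizes `O_2(Y)`. -/
theorem normalizer_le_normalizer_pCoreTwoOf [Finite G] (Y : Subgroup G) :
    normalizer (Y : Set G) ≤ normalizer (pCoreTwoOf Y : Set G) := by
  have hkey : ∀ g ∈ normalizer (Y : Set G), ∀ t ∈ pCoreTwoOf Y, g * t * g⁻¹ ∈ pCoreTwoOf Y := by
    intro g hg t ht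
    obtain ⟨h1, h2⟩ := conj_le_of_le_normalizer hg (pCoreTwoOf_le Y) (le_normalizer_pCoreTwoOf Y)
    have h3 : IsPGroup 2 ((pCoreTwoOf Y).map (MulAut.conj g).toMonoidHom : Subgroup G) :=
      (isPGroup_pCoreTwoOf Y).map _
    exact le_pCoreTwoOf h1 h2 h3 ⟨t, ht, rfl⟩
  intro g hg
  rw [Subgroup.mem_normalizer_iff]
  intro t
  refine ⟨fun ht => hkey g hg t ht, fun ht => ?_⟩
  have := hkey g⁻¹ (Subgroup.inv_mem _ hg) _ ht
  simpa [mul_assoc] using this

/-- In characteristic 2 the centralizer of `O_2(K)` in `K` lies in `O_2(K)`. -/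
theorem inf_centralizer_pCoreTwoOf_le {K : Subgroup G} (h : IsOfCharacteristicTwo K) :
    K ⊓ centralizer (pCoreTwoOf K : Set G) ≤ pCoreTwoOf K := by
  rintro x ⟨hxK, hxC⟩
  have : (⟨x, hxK⟩ : K) ∈ centralizer (pCore 2 K : Set K) := by
    rw [Subgroup.mem_centralizer_iff]
    intro y hy
    have := (Subgroup.mem_centralizer_iff.mp hxC) (y : G) ⟨y, hy, rfl⟩
    exact Subtype.ext this
  exact ⟨_, h this, rfl⟩

/-! ### `omegaOne` of the centre of a subgroup -/

theorem mem_omegaOne_center_iff {Y : Subgroup G} {x : G} :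
    x ∈ omegaOne 2 (Y ⊓ centralizer (Y : Set G)) ↔
      x ∈ Y ⊓ centralizer (Y : Set G) ∧ x ^ 2 = 1 := by
  constructor
  · intro hx
    induction hx using Subgroup.closure_induction with
    | mem x hx => exact hx
    | one => exact ⟨Subgroup.one_mem _, one_pow _⟩
    | mul x y _ _ hx hy =>
      refine ⟨Subgroup.mul_mem _ hx.1 hy.1, ?_⟩
      have hc : x * y = y * x := (Subgroup.mem_centralizer_iff.mp hy.1.2) x hx.1.1
      rw [(show Commute x y from hc).mul_pow, hx.2, hy.2, one_mul]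
    | inv x _ hx =>
      exact ⟨Subgroup.inv_mem _ hx.1, by rw [inv_pow, hx.2, inv_one]⟩
  · exact fun hx => Subgroup.subset_closure hx

theorem normalizer_le_normalizer_omegaOne_center (Y : Subgroup G) :
    normalizer (Y : Set G) ≤
      normalizer (omegaOne 2 (Y ⊓ centralizer (Y : Set G)) : Set G) := by
  have hkey : ∀ g ∈ normalizer (Y : Set G), ∀ t ∈ omegaOne 2 (Y ⊓ centralizer (Y : Set G)),
      g * t * g⁻¹ ∈ omegaOne 2 (Y ⊓ centralizer (Y : Set G)) := by
    intro g hg t ht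
    rw [mem_omegaOne_center_iff] at ht ⊢
    obtain ⟨⟨ht1, ht2⟩, ht3⟩ := ht
    refine ⟨⟨conj_mem_of_le_normalizer hg ht1, ?_⟩, ?_⟩
    · show g * t * g⁻¹ ∈ centralizer (Y : Set G)
      rw [Subgroup.mem_centralizer_iff]
      intro y hy
      have hy' : g⁻¹ * y * g ∈ Y := by
        have := conj_mem_of_le_normalizer (Subgroup.inv_mem _ hg) hy
        simpa using this
      have h1 := (Subgroup.mem_centralizer_iff.mp ht2) _ hy'
      have : y = g * (g⁻¹ * y * g) * g⁻¹ := by group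
      calc y * (g * t * g⁻¹) = g * ((g⁻¹ * y * g) * t) * g⁻¹ := by group
        _ = g * (t * (g⁻¹ * y * g)) * g⁻¹ := by rw [h1]
        _ = g * t * g⁻¹ * y := by group
    · rw [conj_pow, ht3]; simp
  intro g hg
  rw [Subgroup.mem_normalizer_iff]
  intro t
  refine ⟨fun ht => hkey g hg t ht, fun ht => ?_⟩
  have := hkey g⁻¹ (Subgroup.inv_mem _ hg) _ ht
  simpa [mul_assoc] using this

/-! ### Subnormal 2-subgroups and Sylow subgroups -/

/-- A 2-subgroup of `G` normalized by a Sylow 2-subgroup `T` lies in `T`. -/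
theorem le_sylow_of_normalized [Finite G] (T : Sylow 2 G) {O : Subgroup G} (hO : IsPGroup 2 O)
    (hTO : (T : Subgroup G) ≤ normalizer (O : Set G)) : O ≤ T := by
  have h := IsPGroup.to_sup_of_normal_right' T.isPGroup' hO hTO
  have heq := T.is_maximal' h le_sup_left
  rw [← heq]
  exact le_sup_right

/-- A subnormal 2-subgroup of `Y ≥ T` lies in `T`. -/
theorem le_sylow_of_sn [Finite G] (T : Sylow 2 G) {R Y : Subgroup G} (hTY : (T : Subgroup G) ≤ Y)
    (hR : SN R Y) (hp : IsPGroup 2 R) : R ≤ T := by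
  have hp' : IsPGroup 2 (R.subgroupOf Y) := hp.of_equiv (subgroupOfEquivOfLe hR.1).symm
  have h1 := le_pCore_of_isSubnormal hR.2 hp'
  have hO := le_sylow_of_normalized T (isPGroup_pCoreTwoOf Y)
    (hTY.trans (le_normalizer_pCoreTwoOf Y))
  intro x hx
  apply hO
  exact ⟨⟨x, hR.1 hx⟩, h1 (by simpa [Subgroup.mem_subgroupOf] using hx), rfl⟩

/-! ### The members of `calL` -/

section calL

variable {T : Sylow 2 G} {K : Subgroup G}

theorem calL.ne_bot (hK : K ∈ calL (T : Subgroup G)) : K ≠ ⊥ := by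
  rintro rfl
  exact hK.1.1 (by simp)

theorem calL.perfect (hK : K ∈ calL (T : Subgroup G)) : ⁅K, K⁆ = K := by
  have h := hK.1.2.1
  have h2 := congrArg (Subgroup.map (K ⊔ (T : Subgroup G)).subtype) h
  rw [Subgroup.map_commutator, Subgroup.map_subgroupOf_eq_of_le le_sup_left] at h2
  exact h2

theorem calL.sn (hK : K ∈ calL (T : Subgroup G)) : SN K (K ⊔ (T : Subgroup G)) :=
  ⟨le_sup_left, hK.1.2.2.1⟩

theorem calL.oddGen [Finite G] (hK : K ∈ calL (T : Subgroup G)) : K ≤ oddGenerated K :=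
  le_oddGenerated_of_perfect (calL.perfect hK)

theorem calL.oddGenerated_eq [Finite G] (hK : K ∈ calL (T : Subgroup G)) : oddGenerated K = K :=
  le_antisymm (oddGenerated_le K) (calL.oddGen hK)

/-- In a group of even characteristic, any subgroup over `T` with nontrivial 2-core has no good subnormal
subgroups. -/
theorem noGood_of_pCore_ne_bot [Finite G] (hE : IsOfEvenCharacteristic G) {Y : Subgroup G}
    (hTY : (T : Subgroup G) ≤ Y) (hY : pCore 2 Y ≠ ⊥) : NoGood Y := by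
  have hO : pCoreTwoOf Y ≠ ⊥ := by
    intro h
    apply hY
    exact (Subgroup.map_eq_bot_iff_of_injective _ Y.subtype_injective).mp h
  have h2 : IsTwoLocal (normalizer (pCoreTwoOf Y : Set G)) :=
    ⟨_, isPGroup_pCoreTwoOf Y, hO, rfl⟩
  have hYM : Y ≤ normalizer (pCoreTwoOf Y : Set G) := le_normalizer_pCoreTwoOf Y
  have hc := hE _ h2 ⟨T, hTY.trans hYM⟩
  obtain ⟨Q, hQM, hMQ, hQ, hC⟩ := char2In_of_isOfCharacteristicTwo hc
  have hQT : Q ≤ T := le_sylow_of_normalized T hQ ((hTY.trans hYM).trans hMQ)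
  exact noGood_of_le (hQT.trans hTY) hYM hMQ hQ hC

theorem calL.noGood_sup [Finite G] (hE : IsOfEvenCharacteristic G)
    (hK : K ∈ calL (T : Subgroup G)) : NoGood (K ⊔ (T : Subgroup G)) :=
  noGood_of_pCore_ne_bot hE le_sup_right hK.2.2

theorem calL.noGood [Finite G] (hE : IsOfEvenCharacteristic G)
    (hK : K ∈ calL (T : Subgroup G)) : NoGood K :=
  (calL.noGood_sup hE hK).of_sn (calL.sn hK)

theorem calL.mem_calHe [Finite G] (hE : IsOfEvenCharacteristic G)
    (hK : K ∈ calL (T : Subgroup G)) : K ∈ calHe G :=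
  (calL.noGood hE hK).fStar

theorem calL.mem_calX [Finite G] (hE : IsOfEvenCharacteristic G)
    (hK : K ∈ calL (T : Subgroup G)) : K ∈ calX G :=
  ⟨calL.ne_bot hK, calL.oddGenerated_eq hK, calL.mem_calHe hE hK⟩

/-- `O_2(K) ≤ T`. -/
theorem calL.pCoreTwoOf_le_sylow [Finite G] (hK : K ∈ calL (T : Subgroup G)) :
    pCoreTwoOf K ≤ T :=
  le_sylow_of_sn T le_sup_right
    (SN.step (pCoreTwoOf_le K) (le_normalizer_pCoreTwoOf K) (calL.sn hK))
    (isPGroup_pCoreTwoOf K)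

/-- A subgroup of `T` normalizing... : any 2-subgroup `R ≤ T` normalized by `L ∈ calL T` normalizes `L`. -/
theorem calL.le_normalizer_of_le_sylow [Finite G] {L R : Subgroup G}
    (hL : L ∈ calL (T : Subgroup G)) (hRT : R ≤ T) (hLR : L ≤ normalizer (R : Set G)) :
    R ≤ normalizer (L : Set G) := by
  have hsn : SN L (L ⊔ R) := (calL.sn hL).restrict le_sup_left (sup_le_sup_left hRT L)
  exact normalizes_of_subnormal hsn.1 hsn.2 le_sup_right
    (sup_le hLR le_normalizer) (T.isPGroup'.to_le hRT) (calL.oddGen hL)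

end calL

/-! ### The fixed point lemma and the commuting action lemma -/

theorem exists_fixed_of_le_normalizer [Finite G] {E Q : Subgroup G} (hE : IsPGroup 2 E)
    (hQ : IsPGroup 2 Q) (hQE : Q ≤ normalizer (E : Set G)) (hne : E ≠ ⊥) :
    ∃ z ∈ E, z ≠ 1 ∧ z ∈ centralizer (Q : Set G) := by
  have hfact : Fact (Nat.Prime 2) := ⟨Nat.prime_two⟩
  set R := Q ⊔ E with hR
  have hRp : IsPGroup 2 R := IsPGroup.to_sup_of_normal_right' hQ hE hQE
  have hNn : (E.subgroupOf R).Normal := by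
    apply normal_subgroupOf_of_le_normalizer
    exact sup_le hQE le_normalizer
  have hne' : E.subgroupOf R ≠ ⊥ := by
    intro h
    apply hne
    have h2 := Subgroup.map_subgroupOf_eq_of_le (le_sup_right : E ≤ R)
    rw [h] at h2
    rw [← h2]
    simp
  obtain ⟨z, hz1, hz2, hz3⟩ := Cfsg.Agent.Lib.PGroups.Basic.exists_central_orderOf_eq hRp
    (E.subgroupOf R) hne'
  refine ⟨z, by simpa [Subgroup.mem_subgroupOf] using hz1, ?_, ?_⟩
  · intro h
    have : z = 1 := Subtype.ext h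
    rw [this, orderOf_one] at hz3
    omega
  · rw [Subgroup.mem_centralizer_iff]
    intro q hq
    have := (Subgroup.mem_center_iff.mp hz2) ⟨q, le_sup_left (a := Q) hq⟩
    exact congrArg Subtype.val this

/-- The commuting action lemma. Let `U` be an elementary abelian 2-group on which the 2-group `Q` and the
subgroup `L`, generated by odd-order elements, act with commuting actions. If `C_U(Q) ≤ C_U(L)`
then `L` centralizes `U`. -/
theorem centralizes_of_commuting_action [Finite G] {U L Q : Subgroup G}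
    (hUab : ∀ x ∈ U, ∀ y ∈ U, x * y = y * x) (hU2 : ∀ x ∈ U, x ^ 2 = 1)
    (hLU : L ≤ normalizer (U : Set G)) (hQU : Q ≤ normalizer (U : Set G))
    (hU : IsPGroup 2 U) (hQ : IsPGroup 2 Q)
    (hLQ : ∀ l ∈ L, ∀ q ∈ Q, q * l * q⁻¹ * l⁻¹ ∈ centralizer (U : Set G))
    (hfix : ∀ x ∈ U, x ∈ centralizer (Q : Set G) → x ∈ centralizer (L : Set G))
    (hodd : L ≤ oddGenerated L) :
    L ≤ centralizer (U : Set G) := by
  refine le_of_oddGen hodd ?_
  intro l hl hlo
  -- the image of `u ↦ [u, l]`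
  let E : Subgroup G :=
    { carrier := {x | ∃ u ∈ U, u * (l * u⁻¹ * l⁻¹) = x}
      mul_mem' := by
        rintro _ _ ⟨u₁, hu₁, rfl⟩ ⟨u₂, hu₂, rfl⟩
        refine ⟨u₁ * u₂, U.mul_mem hu₁ hu₂, ?_⟩
        have ha : l * u₁⁻¹ * l⁻¹ ∈ U := conj_mem_of_le_normalizer (hLU hl) (U.inv_mem hu₁)
        have hb : l * u₂⁻¹ * l⁻¹ ∈ U := conj_mem_of_le_normalizer (hLU hl) (U.inv_mem hu₂)
        have h1 := hUab _ ha _ hu₂
        have h2 := hUab _ ha _ hb
        calc u₁ * u₂ * (l * (u₁ * u₂)⁻¹ * l⁻¹)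
            = u₁ * u₂ * ((l * u₂⁻¹ * l⁻¹) * (l * u₁⁻¹ * l⁻¹)) := by group
          _ = u₁ * u₂ * ((l * u₁⁻¹ * l⁻¹) * (l * u₂⁻¹ * l⁻¹)) := by rw [h2]
          _ = u₁ * (u₂ * (l * u₁⁻¹ * l⁻¹)) * (l * u₂⁻¹ * l⁻¹) := by group
          _ = u₁ * ((l * u₁⁻¹ * l⁻¹) * u₂) * (l * u₂⁻¹ * l⁻¹) := by rw [h1]
          _ = u₁ * (l * u₁⁻¹ * l⁻¹) * (u₂ * (l * u₂⁻¹ * l⁻¹)) := by group
      one_mem' := ⟨1, U.one_mem, by simp⟩
      inv_mem' := by
        rintro _ ⟨u, hu, rfl⟩
        refine ⟨u⁻¹, U.inv_mem hu, ?_⟩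
        have ha : l * u⁻¹ * l⁻¹ ∈ U := conj_mem_of_le_normalizer (hLU hl) (U.inv_mem hu)
        have h1 := hUab _ ha _ (U.inv_mem hu)
        calc u⁻¹ * (l * u⁻¹⁻¹ * l⁻¹) = u⁻¹ * (l * u⁻¹ * l⁻¹)⁻¹ := by group
          _ = ((l * u⁻¹ * l⁻¹) * u)⁻¹ := by group
          _ = (u * (l * u⁻¹ * l⁻¹))⁻¹ := by
              rw [hUab _ ha _ hu] }
  have hEU : E ≤ U := by
    rintro _ ⟨u, hu, rfl⟩
    exact U.mul_mem hu (conj_mem_of_le_normalizer (hLU hl) (U.inv_mem hu))
  have hEp : IsPGroup 2 E := hU.to_le hEU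
  have hconj : ∀ q ∈ Q, ∀ x ∈ E, q * x * q⁻¹ ∈ E := by
    rintro q hq _ ⟨u, hu, rfl⟩
    refine ⟨q * u * q⁻¹, conj_mem_of_le_normalizer (hQU hq) hu, ?_⟩
    set u' := q * u * q⁻¹ with hu'
    have hu'U : u' ∈ U := conj_mem_of_le_normalizer (hQU hq) hu
    set c := q * l * q⁻¹ * l⁻¹ with hc
    have hcC : c ∈ centralizer (U : Set G) := hLQ l hl q hq
    have hv : l * u'⁻¹ * l⁻¹ ∈ U := conj_mem_of_le_normalizer (hLU hl) (U.inv_mem hu'U)
    have hcv : (l * u'⁻¹ * l⁻¹) * c = c * (l * u'⁻¹ * l⁻¹) :=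
      (Subgroup.mem_centralizer_iff.mp hcC) _ hv
    have hql : q * l * q⁻¹ = c * l := by rw [hc]; group
    calc u' * (l * u'⁻¹ * l⁻¹)
        = u' * (c * (l * u'⁻¹ * l⁻¹) * c⁻¹) := by rw [← hcv]; group
      _ = u' * ((c * l) * u'⁻¹ * (c * l)⁻¹) := by group
      _ = u' * ((q * l * q⁻¹) * u'⁻¹ * (q * l * q⁻¹)⁻¹) := by rw [hql]
      _ = q * (u * (l * u⁻¹ * l⁻¹)) * q⁻¹ := by rw [hu']; group
  have hQE : Q ≤ normalizer (E : Set G) := by
    intro q hq
    rw [Subgroup.mem_normalizer_iff]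
    intro t
    refine ⟨fun ht => hconj q hq t ht, fun ht => ?_⟩
    have := hconj q⁻¹ (Q.inv_mem hq) _ ht
    simpa [mul_assoc] using this
  have hEbot : E = ⊥ := by
    by_contra hne
    obtain ⟨z, hzE, hz1, hzC⟩ := exists_fixed_of_le_normalizer hEp hQ hQE hne
    obtain ⟨u, hu, huz⟩ := hzE
    have hzU : z ∈ U := hEU ⟨u, hu, huz⟩
    have hzL := hfix z hzU hzC
    have hlz : l * z * l⁻¹ = z := by
      have := (Subgroup.mem_centralizer_iff.mp hzL) l hl
      rw [this]; group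
    have hpow : ∀ k : ℕ, z ^ k = u * (l ^ k * u⁻¹ * (l ^ k)⁻¹) := by
      intro k
      induction k with
      | zero => simp
      | succ k ih =>
        have hlzk : l * z ^ k * l⁻¹ = z ^ k := by
          rw [← conj_pow, hlz]
        calc z ^ (k + 1) = z * z ^ k := by rw [pow_succ']
          _ = z * (l * z ^ k * l⁻¹) := by rw [hlzk]
          _ = u * (l * u⁻¹ * l⁻¹) * (l * (u * (l ^ k * u⁻¹ * (l ^ k)⁻¹)) * l⁻¹) := by rw [ih, huz]
          _ = u * (l ^ (k + 1) * u⁻¹ * (l ^ (k + 1))⁻¹) := by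
              rw [pow_succ']; group
    have h1 := hpow (orderOf l)
    rw [pow_orderOf_eq_one] at h1
    simp only [one_mul, inv_one, mul_one, mul_inv_cancel] at h1
    have h2 : z ^ 2 ^ 1 = 1 := by simpa using hU2 z hzU
    exact hz1 (eq_one_of_pow_eq_one_of_coprime (coprime_two_pow_of_odd hlo) h1 h2)
  rw [Subgroup.mem_centralizer_iff]
  intro u hu
  have h1 : u * (l * u⁻¹ * l⁻¹) ∈ E := ⟨u, hu, rfl⟩
  rw [hEbot, Subgroup.mem_bot] at h1
  have h2 : u * (l * u⁻¹ * l⁻¹) * (l * u * l⁻¹) = l * u * l⁻¹ := by rw [h1, one_mul]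
  have h3 : u * (l * u⁻¹ * l⁻¹) * (l * u * l⁻¹) = u := by group
  rw [h3] at h2
  calc u * l = (l * u * l⁻¹) * l := by rw [← h2]
    _ = l * u := by group

end Cfsg.Agent.Lib.Quasithin.CalL
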